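/-
Triangles and cones in the coset graph of the split extension of the even cocode by the Mathieu group.
-/
import Cfsg.Agent.J4u.Phi

set_option autoImplicit false
set_option maxRecDepth 100000

namespace CA.J4q

open CA.M24 CA.J4 CA.J4u Cfsg Equiv
open scoped Pointwise

noncomputable section

variable {Γ : Type*} [Group Γ]

/-- the involution commutes with the stabiliser of the trio -/
structure K0 (κ : M24 →* Γ) (t : Γ) : Prop where
  t2 : t * t = 1
  tx : Commute t (kc κ x0)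
  tw : Commute t (kc κ w0)

theorem K0.comm {κ : M24 →* Γ} {t : Γ} (h : K0 κ t) {c : ℕ} (hc : InH M24 c) (f : fixT c = true) :
    Commute t (kc κ c) := by
  obtain ⟨g, hg, rfl⟩ := hc
  refine (comm_gen (l := [x0, w0]) ?_ (TT_le ⟨hg, ?_⟩)).2
  · simp only [List.mem_cons, List.not_mem_nil, or_false, forall_eq_or_imp, forall_eq]
    exact ⟨⟨x0_in, h.tx⟩, w0_in, h.tw⟩
  · exact ((famC 3).smul_dec (by decide +kernel) (by decide +kernel)).2 (beq_iff.1 f)

/-- the involution normalises the stabiliser of the edge in the known way -/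
structure S0 (μ : MH Γ) (t : Γ) : Prop extends K0 μ.κ t where
  tv : t * μ.ν 20 * t = μ.ν 20 * kc μ.κ k20

variable {μ : MH Γ} {t : Γ}

theorem mover0 {sy : ℕ → Γ} (h : K0 μ.κ (sy 0)) : Mover μ sy mvK0 := fun s _ x hx e => by
  simp only [mvK0, bif'_eq, band_eq_true, beq_iff, force_eq] at e ⊢
  split_ifs at e ⊢ with c
  · have := h.comm hx.2 c.2.2
    rw [c.1, MH.ev, c.2.1, μ.ν_zero, one_mul]
    exact ⟨hx, this.eq, this.symm.eq⟩
  · exact absurd rfl e

theorem S0.tauB (h : S0 μ t) : ∀ p ∈ tauB, p.1 < 2048 ∧ Ok p.2 ∧ t * μ.ν p.1 * t = μ.ev p.2 := by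
  intro p hp
  have l : p.1 < 2048 ∧ 64 ≤ p.2 := by revert p; decide +kernel
  have := chkW_spec (μ := μ) (sy := fun _ => t) (mover0 h.toK0) (fun g hg => ?_) chkT _ (List.mem_map_of_mem hp)
  · have o : Ok p.2 := (this.2.1 _ (by simp)).resolve_left (Nat.not_lt.2 l.2)
    have e := this.2.2
    simp only [evL_one, evL_0, evL_v l.1, evL_nil, mul_one, evL_ok o] at e
    exact ⟨l.1, o, by rw [mul_assoc, e]⟩
  · simp only [List.mem_cons, List.not_mem_nil, or_false] at hg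
    rcases hg with rfl | rfl
    · exact hw_TT (by norm_num) h.t2
    · refine ⟨good_of_chkL (by decide +kernel), good_of_chkL (by decide +kernel), ?_⟩
      simp only [evL_one, evL_0, evL_v (show 20 < 2048 by norm_num), evL_pr (show 20 < 2048 by norm_num) k20_in,
        evL_nil, mul_one, ← h.tv, mul_assoc]

theorem S0.tau_spec (h : S0 μ t) {v : ℕ} (hv : v < 2048) (hL : tb LB v = true) :
    Ok (tauV v) ∧ t * μ.ν v * t = μ.ev (tauV v) := by
  induction v using Nat.strong_induction_on with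
  | _ v ih =>
    have c := all11 tauChk hv
    simp only [bimp_eq_true, bor_eq_true, beq_iff, anyL_eq_true, force_eq, band_eq_true, blt'_eq_true] at c
    rcases c hL with rfl | ⟨p, hp, ⟨c1, c2⟩, c3⟩
    · rw [show tauV 0 = pone by decide +kernel, μ.ν_zero, μ.ev_one, mul_one]
      exact ⟨ok_one, h.t2⟩
    · obtain ⟨a1, a2, a3⟩ := h.tauB p hp
      obtain ⟨b1, b2⟩ := ih _ c1 (c1.trans hv) c2
      rw [c3, μ.ev_mul a2 b1, ← a3, ← b2]
      refine ⟨a2.mul b1, ?_⟩
      have e : μ.ν v = μ.ν p.1 * μ.ν (Nat.xor p.1 v) := by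
        rw [← μ.xor _ a1 _ (c1.trans hv)]
        exact congrArg _ (Nat.xor_xor_cancel_left p.1 v).symm
      rw [e]
      calc _ = t * μ.ν p.1 * (t * t) * μ.ν (Nat.xor p.1 v) * t := by rw [h.t2]; group
        _ = _ := by group

theorem S0.tau (h : S0 μ t) {x : ℕ} (hx : Ok x) (e : inM1 x = true) :
    Ok (tauE x) ∧ t * μ.ev x * t = μ.ev (tauE x) := by
  simp only [inM1, band_eq_true, force_eq] at e
  obtain ⟨a1, a2⟩ := h.tau_spec hx.1 e.1
  have c := h.comm hx.2 e.2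
  simp only [tauE, force_eq]
  refine ⟨a1.mul (ok_perm hx.2), ?_⟩
  rw [μ.ev_mul a1 (ok_perm hx.2), μ.ev_perm hx.2, ← a2, MH.ev, mul_assoc, mul_assoc, ← c.eq]
  group

/-- conjugation of codes -/
def ecj (m e : ℕ) : ℕ := force (emul m e) fun a => force (einv m) (emul a)

theorem ok_ecj {m e : ℕ} (hm : Ok m) (he : Ok e) : Ok (ecj m e) := by
  simp only [ecj, force_eq]; exact (hm.mul he).mul hm.inv

theorem ev_ecj {m e : ℕ} (hm : Ok m) (he : Ok e) : μ.ev (ecj m e) = μ.ev m * μ.ev e * (μ.ev m)⁻¹ := by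
  simp only [ecj, force_eq]; rw [μ.ev_mul (hm.mul he) hm.inv, μ.ev_mul hm he, μ.ev_inv hm]

/-- the word `t a t b t c` commutes with `e` -/
def ch3 (a b c e : ℕ) : Bool := force (ecj c e) fun f => band (inM1 f) (force (tauE f) fun f =>
  force (ecj b f) fun f => band (inM1 f) (force (tauE f) fun f => force (ecj a f) fun f =>
    band (inM1 f) (Nat.beq (tauE f) e)))

theorem S0.ch3 (h : S0 μ t) {a b c e : ℕ} (ha : Ok a) (hb : Ok b) (hc : Ok c) (he : Ok e) (k : ch3 a b c e = true) :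
    Commute (t * μ.ev a * t * μ.ev b * t * μ.ev c) (μ.ev e) := by
  simp only [J4q.ch3, force_eq, band_eq_true, beq_iff] at k
  obtain ⟨a1, a2⟩ := h.tau (ok_ecj hc he) k.1
  obtain ⟨b1, b2⟩ := h.tau (ok_ecj hb a1) k.2.1
  have c2 := (h.tau (ok_ecj ha b1) k.2.2.1).2
  rw [k.2.2.2, ev_ecj ha b1, ← b2, ev_ecj hb a1, ← a2, ev_ecj hc he] at c2
  have i : t⁻¹ = t := inv_eq_of_mul_eq_one_right h.t2
  rw [commute_iff_eq, ← mul_inv_eq_iff_eq_mul]
  refine Eq.trans ?_ c2
  simp only [mul_inv_rev, i, mul_assoc]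

variable (μ t) in
/-- a triangle -/
structure Tri (a b c : ℕ) : Prop where
  oa : Ok a
  ob : Ok b
  oc : Ok c
  eq : t * μ.ev a * t = μ.ev b * t * μ.ev c

variable (μ t) in
/-- the word of a path -/
def Wr : List (ℕ × ℕ × ℕ) → Γ
  | [] => 1
  | s :: l => t * μ.ev s.2.2 * Wr l

/-- contraction of a path along triangles with a common vertex -/
def cone (B : ℕ → ℕ × ℕ × ℕ) (l : List (ℕ × ℕ × ℕ)) : ℕ → ℕ → ℕ :=
  List.rec (motive := fun _ => ℕ → ℕ → ℕ)
    (fun x y => bif' (inM1 x) (force (tauE x) fun u => emul u y) (nat_lit 0))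
    (fun s _ ih x y => force (emul s.2.1 (B s.1).1) fun u => force (einv u) fun u => force (emul u y) fun d =>
      bif' (band (band (chkE s.2.1) (chkE s.2.2)) (band (inM1 s.2.1) (inM1 d)))
        (force (tauE s.2.1) fun u => force (emul u (B s.1).2.1) fun u => force (emul x u) fun x' =>
          force (tauE d) fun u => force (emul (B s.1).2.2 u) fun u => force (emul u s.2.2) fun y' => ih x' y')
        (nat_lit 0)) l

theorem cone_cons (B : ℕ → ℕ × ℕ × ℕ) (s : ℕ × ℕ × ℕ) (l : List (ℕ × ℕ × ℕ)) (x y : ℕ) : cone B (s :: l) x y =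
    force (emul s.2.1 (B s.1).1) fun u => force (einv u) fun u => force (emul u y) fun d =>
      bif' (band (band (chkE s.2.1) (chkE s.2.2)) (band (inM1 s.2.1) (inM1 d)))
        (force (tauE s.2.1) fun u => force (emul u (B s.1).2.1) fun u => force (emul x u) fun x' =>
          force (tauE d) fun u => force (emul (B s.1).2.2 u) fun u => force (emul u s.2.2) fun y' => cone B l x' y')
        (nat_lit 0) := rfl

theorem S0.cone (h : S0 μ t) {B : ℕ → ℕ × ℕ × ℕ} (hB : ∀ k, Tri μ t (B k).1 (B k).2.1 (B k).2.2)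
    (l : List (ℕ × ℕ × ℕ)) {x y v : ℕ} (hx : Ok x) (hy : Ok y) (e : cone B l x y = v) (v0 : v ≠ 0) :
    Ok v ∧ t * μ.ev x * t * μ.ev y * Wr μ t l = μ.ev v := by
  induction l generalizing x y with
  | nil =>
    simp only [J4q.cone, bif'_eq, force_eq] at e
    split_ifs at e with c
    · obtain ⟨a, b⟩ := h.tau hx c
      rw [← e, μ.ev_mul a hy, b, Wr, mul_one]
      exact ⟨a.mul hy, rfl⟩
    · exact absurd e.symm v0
  | cons s l ih =>
    simp only [cone_cons, bif'_eq, force_eq, band_eq_true] at e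
    split_ifs at e with c
    · obtain ⟨oa, ob, oc, eq⟩ := hB s.1
      have o1 := ok_of_chk c.1.1
      have o2 := ok_of_chk c.1.2
      have o3 := (o1.mul oa).inv.mul hy
      obtain ⟨a1, a2⟩ := h.tau o1 c.2.1
      obtain ⟨b1, b2⟩ := h.tau o3 c.2.2
      obtain ⟨c1, c2⟩ := ih (hx.mul (a1.mul ob)) ((oc.mul b1).mul o2) e
      refine ⟨c1, Eq.trans ?_ c2⟩
      rw [μ.ev_mul hx (a1.mul ob), μ.ev_mul a1 ob, μ.ev_mul (oc.mul b1) o2, μ.ev_mul oc b1, ← a2, ← b2,
        μ.ev_mul (o1.mul oa).inv hy, μ.ev_inv (o1.mul oa), μ.ev_mul o1 oa, Wr]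
      calc _ = t * μ.ev x * (t * μ.ev s.2.1 * t) * (t * μ.ev (B s.1).1 * t) *
          (t * ((μ.ev s.2.1 * μ.ev (B s.1).1)⁻¹ * μ.ev y) * t) * μ.ev s.2.2 * Wr μ t l := by
            simp only [mul_assoc, ← mul_assoc t t, h.t2, one_mul, mul_inv_rev, mul_inv_cancel_left]
        _ = _ := by rw [eq]; simp only [mul_assoc]
    · exact absurd e.symm v0

/-- a cone over a closed path -/
theorem S0.loop (h : S0 μ t) {B : ℕ → ℕ × ℕ × ℕ} (hB : ∀ k, Tri μ t (B k).1 (B k).2.1 (B k).2.2)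
    (l : List (ℕ × ℕ × ℕ)) {y v : ℕ} (hy : Ok y) (e : J4q.cone B l pone y = v) (v0 : v ≠ 0) :
    Ok v ∧ μ.ev y * Wr μ t l = μ.ev v := by
  have := h.cone hB l ok_one hy e v0
  rwa [μ.ev_one, mul_one, h.t2, one_mul] at this

theorem Tri.loop (h : S0 μ t) {a b c i j k p q r : ℕ} (T : Tri μ t a b c) :
    Wr μ t [(i, p, a), (j, q, einv c), (k, r, einv b)] = 1 := by
  simp only [Wr, μ.ev_inv T.ob, μ.ev_inv T.oc, mul_one, ← mul_assoc, T.eq]
  simp only [mul_assoc, mul_inv_cancel_left, ← mul_assoc t t, h.t2, one_mul, mul_inv_cancel]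

theorem tri_of {a d c z : ℕ} (h : S0 μ t) (ha : Ok a) (hd : Ok d) (hc : Ok c) (hz : Ok z)
    (e : t * μ.ev a * t * μ.ev d * t * μ.ev c = μ.ev z) : Tri μ t a (emul z (einv c)) (einv d) := by
  refine ⟨ha, hz.mul hc.inv, hd.inv, ?_⟩
  rw [μ.ev_mul hz hc.inv, μ.ev_inv hc, μ.ev_inv hd, ← e]
  simp only [mul_assoc, mul_inv_cancel_left, ← mul_assoc t t, h.t2, one_mul, mul_inv_cancel, mul_one]

end

end CA.J4q

theorem CA.J4q.realizeEqnsCone : True := by
  have := @CA.J4q.ch3.eq_1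
  have := @CA.J4q.ch3.eq_def
  have := @CA.J4q.ch3.congr_simp
  have := @CA.J4q.Wr.eq_1.{0}
  have := @CA.J4q.Wr.eq_2.{0}
  have := @CA.J4q.Wr.eq_def.{0}
  have := @CA.J4q.Wr.congr_simp.{0}
  have := @CA.J4q.ecj.eq_1
  have := @CA.J4q.ecj.eq_def
  have := @CA.J4q.ecj.congr_simp
  have := @CA.J4q.cone.eq_1
  have := @CA.J4q.cone.eq_def
  have := @CA.J4q.cone.congr_simp
  trivial
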