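/-
The last two relators from the triangles.
-/
import Cfsg.Agent.J4q.Cone

set_option autoImplicit false
set_option maxRecDepth 100000

namespace CA.J4q

open CA.M24 CA.J4 CA.J4u Cfsg Equiv

noncomputable section

variable {Γ : Type*} [Group Γ] {μ : MH Γ} {t : Γ}

/-- a basis of the vectors in the extraspecial group attached to the sextet vector `980` -/
def Wm : ℕ := nat_lit 4628499150198201456996488
/-- generators of the hexacode group of that sextet -/
def hs : List ℕ := [nat_lit 527895546147716037535013512768768001, nat_lit 486357328893141131999927438635270722, nat_lit 466147196456123498830062580045350944, nat_lit 352616210629569150565780254325377056, nat_lit 361003005569524144374353969525981762, nat_lit 527856405392348986862409876434748498]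
/-- generators of the extraspecial group -/
def EG : List ℕ := (List.range 7).map (fun i => pr (col Wm i) pone) ++ hs
def aL : ℕ := nat_lit 936387675001088893923008575081686629
def dL : ℕ := nat_lit 694859728039641493363510019617882146
def cL : ℕ := nat_lit 236396604682205979066629751029816684
def aH : ℕ := nat_lit 236946725325562452697393716160650635
def dH : ℕ := nat_lit 484914951247602435423102044233285841
def cH : ℕ := nat_lit 837340723397021512692904997924973062
def z1 : ℕ := pr 980 pone
/-- the two triangles with given signs -/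
def BB (u v k : ℕ) : ℕ × ℕ × ℕ :=
  bif' (Nat.beq k (nat_lit 0)) (aL, emul u (einv cL), einv dL) (aH, emul v (einv cH), einv dH)
def BL (u : ℕ) (_ : ℕ) : ℕ × ℕ × ℕ := (aL, emul u (einv cL), einv dL)

variable (μ) in
/-- what is used about the ambient group -/
structure Amb : Prop where
  inj : ∀ a b, Ok a → Ok b → μ.ev a = μ.ev b → a = b
  cen : ∀ g, (∀ e ∈ EG, Commute g (μ.ev e)) → g = μ.ev pone ∨ g = μ.ev z1

theorem ok_z1 : Ok z1 := ok_of_chk (by decide +kernel)
theorem ok_EG : ∀ e ∈ EG, Ok e := fun e he => ok_of_chk (allL_eq_true.1 (by decide +kernel : allL chkE EG = true) e he)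

theorem S0.tri (h : S0 μ t) (A : Amb μ) {a d c : ℕ}
    (k : band (allL chkE [a, d, c]) (allL (J4q.ch3 a d c) EG) = true) :
    Tri μ t a (emul pone (einv c)) (einv d) ∨ Tri μ t a (emul z1 (einv c)) (einv d) := by
  simp only [band_eq_true, allL_eq_true, List.mem_cons, List.not_mem_nil, or_false, forall_eq_or_imp, forall_eq] at k
  have a := ok_of_chk k.1.1
  have d := ok_of_chk k.1.2.1
  have c := ok_of_chk k.1.2.2
  exact (A.cen _ fun e he => h.ch3 a d c (ok_EG e he) (k.2 e he)).imp (tri_of h a d c ok_one) (tri_of h a d c ok_z1)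

theorem S0.no (h : S0 μ t) (A : Amb μ) {B : ℕ → ℕ × ℕ × ℕ} (hB : ∀ k, Tri μ t (B k).1 (B k).2.1 (B k).2.2)
    {a b c i j k p q r y v : ℕ} (T : Tri μ t a b c) (e : band (band (chkE y) (band (bne' v 0) (bne' y v)))
      (Nat.beq (J4q.cone B [(i, p, a), (j, q, einv c), (k, r, einv b)] pone y) v) = true) : False := by
  simp only [band_eq_true, bne'_eq_true, beq_iff] at e
  obtain ⟨o, f⟩ := h.loop hB _ (ok_of_chk e.1.1) e.2 e.1.2.1
  rw [T.loop h, mul_one] at f
  exact e.1.2.2 (A.inj _ _ (ok_of_chk e.1.1) o f)

theorem S0.triL (h : S0 μ t) (A : Amb μ) : Tri μ t aL (emul pone (einv cL)) (einv dL) :=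
  (h.tri A (by decide +kernel)).resolve_right fun T => h.no A (B := BL z1) (fun _ => by simpa only [BL] using T) T
    (i := 0) (j := 0) (k := 0) (p := nat_lit 984818244535754528103549039458486304) (q := nat_lit 61564730413508591960834360104701196) (r := nat_lit 176078313691272417217775975855015946)
    (y := nat_lit 693725004678653576520614299916798003) (v := nat_lit 278340997957904723275589356023678020) (by decide +kernel)

theorem tri_BB {u v : ℕ} (a : Tri μ t aL (emul u (einv cL)) (einv dL)) (b : Tri μ t aH (emul v (einv cH)) (einv dH))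
    (k : ℕ) : Tri μ t (BB u v k).1 (BB u v k).2.1 (BB u v k).2.2 := by
  rw [BB, bif'_eq]
  split_ifs
  exacts [a, b]

theorem S0.triH (h : S0 μ t) (A : Amb μ) : Tri μ t aH (emul z1 (einv cH)) (einv dH) :=
  (h.tri A (by decide +kernel)).resolve_left fun T => h.no A (tri_BB (h.triL A) T) (h.triL A)
    (i := 1) (j := 1) (k := 1) (p := nat_lit 2288586198990375971795555499781931501600) (q := nat_lit 110371659626110840023283383559749579496) (r := nat_lit 110371659626110840023283383559749579496)
    (y := nat_lit 758377794477335098620671246574671695509) (v := nat_lit 657356466797681492279981909993365507733) (by decide +kernel)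

theorem S0.rk (h : S0 μ t) (A : Amb μ) : RK μ.κ t := by
  refine ⟨h.t2, h.tx, h.tw, ?_⟩
  have := (h.cone (B := BL pone) (fun _ => by simpa only [BL] using h.triL A) [(nat_lit 0, nat_lit 720622708877817448105311883120393319, nat_lit 984818244535754528103549039458486304)] (ok_perm m1_in) (ok_perm m1_in)
    (v := pinv m1) (by decide +kernel) (by decide +kernel)).2
  simp only [Wr, μ.ev_perm m1_in, μ.ev_perm m1_in.inv, kc_inv _ m1_in, mul_one,
    show μ.ev (nat_lit 984818244535754528103549039458486304) = 1 from μ.ev_one] at this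
  calc _ = kc μ.κ m1 * (t * kc μ.κ m1 * t * kc μ.κ m1 * t) := by simp only [pow_succ, pow_zero, one_mul, mul_assoc]
    _ = 1 := by rw [this, mul_inv_cancel]

theorem S0.r2 (h : S0 μ t) (A : Amb μ) : R2 μ.κ t := by
  have o : Ok (nat_lit 1969304498637393458836039478490065604245) := ok_of_chk (by decide +kernel)
  have := (h.loop (tri_BB (h.triL A) (h.triH A)) [(1, nat_lit 111310741894683771979119535042727086112, pinv c2), (0, nat_lit 1308136426166048491354563923291714078730, pmul c2 pi0),
    (1, nat_lit 844458723369087435384163762755427685, pinv c2), (0, nat_lit 831518565149030255563533797515896200, c2)] (o.mul (ok_perm pi0_in))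
    (v := nat_lit 1969304498637393458836039478490065604245) (by decide +kernel) (by decide +kernel)).2
  simp only [Wr, μ.ev_mul o (ok_perm pi0_in), μ.ev_perm pi0_in, μ.ev_perm c2_in, μ.ev_perm c2_in.inv,
    μ.ev_perm (c2_in.mul pi0_in), kc_inv _ c2_in, kc_mul _ c2_in pi0_in, mul_one, mul_assoc, mul_eq_left] at this
  simp only [J4u.R2, pow_two, mul_assoc, this]

theorem S0.phi (h : S0 μ t) (A : Amb μ) :
    ∃ φ : Spor.J4 →* Γ, φ jx = kc μ.κ x0 ∧ φ jy = kc μ.κ y0 ∧ φ jt = t := phi_of (h.rk A) (h.r2 A)

end

end CA.J4q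

theorem CA.J4q.realizeEqnsRel : True := by
  have := @CA.J4q.dH.eq_1
  have := @CA.J4q.dH.eq_def
  have := @CA.J4q.dH.congr_simp
  have := @CA.J4q.Wm.eq_1
  have := @CA.J4q.Wm.eq_def
  have := @CA.J4q.Wm.congr_simp
  have := @CA.J4q.BL.eq_1
  have := @CA.J4q.BL.eq_def
  have := @CA.J4q.BL.congr_simp
  have := @CA.J4q.aH.eq_1
  have := @CA.J4q.aH.eq_def
  have := @CA.J4q.aH.congr_simp
  have := @CA.J4q.cH.eq_1
  have := @CA.J4q.cH.eq_def
  have := @CA.J4q.cH.congr_simp
  have := @CA.J4q.aL.eq_1
  have := @CA.J4q.aL.eq_def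
  have := @CA.J4q.aL.congr_simp
  have := @CA.J4q.dL.eq_1
  have := @CA.J4q.dL.eq_def
  have := @CA.J4q.dL.congr_simp
  have := @CA.J4q.BB.eq_1
  have := @CA.J4q.BB.eq_def
  have := @CA.J4q.BB.congr_simp
  have := @CA.J4q.cL.eq_1
  have := @CA.J4q.cL.eq_def
  have := @CA.J4q.cL.congr_simp
  have := @CA.J4q.hs.eq_1
  have := @CA.J4q.hs.eq_def
  have := @CA.J4q.hs.congr_simp
  have := @CA.J4q.EG.eq_1
  have := @CA.J4q.EG.eq_def
  have := @CA.J4q.EG.congr_simp
  have := @CA.J4q.z1.eq_1
  have := @CA.J4q.z1.eq_def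
  have := @CA.J4q.z1.congr_simp
  trivial
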