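/-
The model of the normaliser of the cocode in a group of Janko-four type, and an extraspecial group in it.
-/
import Cfsg.Agent.J4q.Rel
import Cfsg.Agent.J4o.H
import Cfsg.Agent.J4.Ten
import Cfsg.Agent.J4.Syl3

set_option autoImplicit false
set_option maxRecDepth 100000
set_option linter.unusedSectionVars false

namespace CA.J4q

open CA.M24 CA.Fi CA.FG CA.J4 CA.J4.HM CA.J4u Cfsg Subgroup Equiv

noncomputable section

/-- a permutation taking the sextet `980` to the standard one -/
def ww : ℕ := nat_lit 442826353266016233406609690164887586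
def HL : List ℕ := [nat_lit 984818244535754528103549039458486304, nat_lit 527895546147716037535013512768768001, nat_lit 486357328893141131999927438635270722, nat_lit 361742004734547005661553711140406354, nat_lit 466147196456123498830062580045350944, nat_lit 341531853541045281165087712818677761, nat_lit 964608069933822158405640634801750594, nat_lit 507685390302267759163706247843841106, nat_lit 352616210629569150565780254325377056, nat_lit 477231513064975224268022658194917377, nat_lit 518769728634307537237797649618731586, nat_lit 975692405299157975170201852683125842, nat_lit 517164904056327656058677688041867296, nat_lit 974087561964694002664480751374452737, nat_lit 351011343886674532858616746681696834, nat_lit 475626665078564697887460290283045970, nat_lit 361003005569524144374353969525981762, nat_lit 485618683100762121546503008188793938, nat_lit 527156486436061352485033485939673120, nat_lit 984078788005079886947531054210795521, nat_lit 508424392508947982585550372848370242, nat_lit 965346712459683604282855048361378898,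 nat_lit 342270953657418709352686003508316192, nat_lit 466886612806939599290027934929242113, nat_lit 975385239233919517483812371715195458, nat_lit 518462915941712930385183479818749010, nat_lit 476925157962892599725792365524944928, nat_lit 352309458708466569917512003236808705, nat_lit 475933834185460517708494154641080898, nat_lit 351318153312751575135020899594830930, nat_lit 974393957471495370344329307904968736, nat_lit 517471615797571696010893308766636033, nat_lit 527856405392348986862409876434748498, nat_lit 984778331678152115807801971972670018, nat_lit 361703304498450438538043894914271233, nat_lit 486317894067777385906476470720956448, nat_lit 341925417395250291000233810643780690, nat_lit 466539988208093147042065246718657090, nat_lit 508078523165955595641006692264200193, nat_lit 965000468208242815912999927533930528, nat_lit 477270649734173004629668861517595730, nat_lit 352656080531619340328034308655776322, nat_lit 975731110977838582174002402601060353, nat_lit 518809205058808736295408330008004640,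 nat_lit 973693994024319722518377220538008658, nat_lit 516772069348805785313182008213144130, nat_lit 475233537657460901290450579554486273, nat_lit 350618987211391328315417166424475680, nat_lit 486011063484289574557824827774355457, nat_lit 361396156324105185347691887092959264, nat_lit 984471599004357509224904494711178322, nat_lit 527550031042958388254808809937699394, nat_lit 965307259743426653693366607300446209, nat_lit 508385710163744619958078029768853536, nat_lit 466846719196645161059651641270502482, nat_lit 342231793654743684614711593347220034, nat_lit 518070541375536521345946426414909441, nat_lit 974992129703708925382840134133254176, nat_lit 351916643248252673237387097235162194, nat_lit 476531570775210345514318060861424194, nat_lit 351357611846359569696594106837485569, nat_lit 475972557755034329208332177705633824, nat_lit 517511504946929859838518136924111954, nat_lit 974433074893385176640604737400570434]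
def hx (j : ℕ) : ℕ := getL HL pone j
def ee (k j : ℕ) : ℕ := pr (ap Wm k) (hx j)

theorem ww_in : InH M24 ww := inM_of_chk (by decide +kernel)
theorem hx_eq : ∀ j < 64, hx j = evalW hs ((List.range 6).map fun i => bif' (tb j i) i 6) := by decide +kernel
theorem hx_inj : ∀ i < 64, ∀ j < 64, hx i = hx j → i = j := by decide +kernel
theorem Wm_spec : ∀ k < 128, ap Wm k < 2048 ∧ act ww (ap Wm k) = k := by decide +kernel
theorem hs_in : ∀ c ∈ hs, InH M24 c := inM_of_allL (by decide +kernel)
theorem hx_in {j : ℕ} (hj : j < 64) : InH M24 (hx j) := hx_eq j hj ▸ inH_evalW hs_in _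
theorem ok_ee {k j : ℕ} (hk : k < 128) (hj : j < 64) : Ok (ee k j) := ok_pr (Wm_spec k hk).1 (hx_in hj)

variable {G : Type*} [Group G]

theorem kc_evalW {κ : M24 →* G} {A : Subgroup G} {l : List ℕ} (h : ∀ c ∈ l, InH M24 c) (h' : ∀ c ∈ l, kc κ c ∈ A)
    (w : List ℕ) : kc κ (evalW l w) ∈ A := by
  obtain ⟨_, ⟨p, hp, rfl⟩, e⟩ := inH_evalW (H := (A.comap κ).map M24.subtype) (gens := l) (fun c hc => by
    obtain ⟨p, hp, rfl⟩ := h c hc
    exact ⟨p, ⟨⟨p, hp⟩, (kc_code κ ⟨p, hp⟩ ▸ h' _ hc :), rfl⟩, rfl⟩) w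
  rw [← e]
  exact (kc_code κ p).symm ▸ hp

variable [Finite G] (X : HM G) [hF : Fact X.Fu]

/-- the complement whose fixed point free involutions are not central -/
def Kc : M24 →* G := MonoidHom.mk' (fun p => X.ψ {pt 23} * X.ψ {p.1 (pt 23)} * X.K p) fun p q => by
  rw [map_mul, ← mul_assoc, mul_assoc (X.ψ _ * X.ψ _) (X.K p) (_ * _),
    ← mul_assoc (X.K p), mul_inv_eq_iff_eq_mul.1 ((th_K p).pair' _ _)]
  simp only [mul_assoc, ← mul_assoc (X.ψ {p.1 (pt 23)}) (X.ψ {p.1 (pt 23)}), X.V_sq (X.ψ_mem _), one_mul]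
  rfl

theorem th_Kc (p : M24) : X.TH (Kc X p) p := (th_K p).mulV (mul_mem (X.ψ_mem _) (X.ψ_mem _))

/-- the model -/
def mu : MH G := ofHM X (Kc X) (th_Kc X)

theorem mu_ν (k : ℕ) : (mu X).ν k = X.ev k := rfl

theorem th_kc {c : ℕ} (hc : InH M24 c) : X.TH (kc (mu X).κ c) (perm c) := by
  obtain ⟨p, hp, rfl⟩ := hc
  rw [kc_code _ ⟨p, hp⟩, perm_code]; exact th_Kc X ⟨p, hp⟩

theorem kc_eq {c : ℕ} (hc : InH M24 c) : kc (mu X).κ c = X.ev (du 23 (dig c 23)) * X.K ⟨_, hc.perm_mem⟩ := by
  obtain ⟨p, hp, rfl⟩ := hc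
  rw [kc_code _ ⟨p, hp⟩, dig_code p (by norm_num), ← idx_pt (n := 23) (by norm_num), ← X.ψ_two, pt_idx]
  simp only [perm_code]
  rfl

theorem kc_cj {c : ℕ} (hc : InH M24 c) {k : ℕ} (hk : k < 2048) :
    kc (mu X).κ c * X.ev k * (kc (mu X).κ c)⁻¹ = X.ev (act c k) := by rw [(th_kc X hc).act hk, hc.code_perm]

theorem ev_inj {a b : ℕ} (ha : Ok a) (hb : Ok b) (e : (mu X).ev a = (mu X).ev b) : a = b := by
  have h := (show X.TH ((mu X).ev a) _ from (th_kc X ha.2).mulV (X.ev_mem ha.1)).unique
    (e ▸ (show X.TH ((mu X).ev b) _ from (th_kc X hb.2).mulV (X.ev_mem hb.1)))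
  have h2 : sn a = sn b := by rw [← ha.2.code_perm, h, hb.2.code_perm]
  rw [MH.ev, MH.ev, h2] at e
  exact eq_of_fs_sn (X.ev_inj ha.1 hb.1 (mul_right_cancel e)) h2

theorem hom_EE {κ : M24 →* G} (hκ : ∀ p : M24, X.TH (κ p) p) {f : G} (hf : f ∈ X.EE) {q : Perm Pt} (h : X.TH f q)
    (p : M24) (e : (p : Perm Pt) = q * (perm μR * q * (perm μR)⁻¹)) (e2 : p * p = 1) : κ p ∈ X.EE := by
  have a := (hκ ⟨_, h.inM⟩).div h
  have b := (hκ ⟨_, X.th_ρ.inM⟩).div X.th_ρ
  have a1 := inv_mul_cancel_right (κ ⟨_, h.inM⟩) f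
  have b1 := inv_mul_cancel_right (κ ⟨_, X.th_ρ.inM⟩) X.ρ
  have a2 : Commute X.z (κ ⟨_, h.inM⟩) := a1 ▸ (X.zc_V a).mul_right (X.z_EE hf)
  have b2 : Commute X.z (κ ⟨_, X.th_ρ.inM⟩) := b1 ▸ (X.zc_V b).mul_right X.zρ
  have e1 : κ p = κ ⟨_, h.inM⟩ * κ ⟨_, X.th_ρ.inM⟩ * κ ⟨_, h.inM⟩ * (κ ⟨_, X.th_ρ.inM⟩)⁻¹ := by
    rw [← map_inv, ← map_mul, ← map_mul, ← map_mul]
    exact congrArg _ (Subtype.ext (by simp [e, mul_assoc]))
  refine X.mem_EE_of_pow (k := 1) (e1 ▸ ((a2.mul_right b2).mul_right a2).mul_right b2.inv_right) ?_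
    (by rw [pow_one, pow_two, ← map_mul, e2, map_one])
  rw [e1, X.π_mul _ _ ((a2.mul_right b2).mul_right a2) b2.inv_right, X.π_mul _ _ (a2.mul_right b2) a2,
    X.π_mul _ _ a2 b2, X.π_inv b2, ← a1, ← b1, X.π_mul _ _ (X.zc_V a) (X.z_EE hf), X.π_mul _ _ (X.zc_V b) X.zρ,
    X.π_EE hf, X.π_ρ, mul_one, mul_one]
  exact X.π_V a _ b

/-- the extraspecial group attached to the sextet vector `980` -/
def E1 : Subgroup G := X.EE :^ (kc (mu X).κ ww)⁻¹

theorem hs_E1 {c : ℕ} (hc : c ∈ hs) : kc (mu X).κ c ∈ E1 X := by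
  have := allL_eq_true.1 (by decide +kernel : allL (fun c => force (pmul (pmul ww c) (pinv ww)) fun d =>
    band (Nat.beq (pmul d d) pone) (anyR (fun i => force (getL μS 0 i) fun q => band (chk q)
      (Nat.beq d (pmul q (pmul (pmul μR q) (pinv μR))))) 6)) hs = true) c hc
  simp only [force_eq, band_eq_true, beq_iff, anyR_eq_true] at this
  obtain ⟨a, i, hi, b, e⟩ := this
  have m := (ww_in.mul (hs_in c hc)).mul ww_in.inv
  rw [E1, mem_conjg_inv, ← kc_inv _ ww_in, ← kc_mul _ ww_in (hs_in c hc), ← kc_mul _ (ww_in.mul (hs_in c hc)) ww_in.inv,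
    ← m.code_perm, kc_code _ ⟨_, m.perm_mem⟩]
  refine hom_EE X (th_Kc X) (X.s_mem (col_lt _ _)) (X.th_sP hi) _ (code_inj ?_) (Subtype.ext (code_inj ?_))
  · rw [← pmul_code, ← pmul_code, ← pmul_code, ← pinv_code, m.code_perm, code_perm_chk b,
      code_perm_chk (by decide +kernel), e]
  · rw [coe_mul, ← pmul_code, m.code_perm, a, coe_one, code_one]

theorem ev_ee {k j : ℕ} (hj : j < 64) : (mu X).ev (ee k j) = X.ev (ap Wm k) * kc (mu X).κ (hx j) :=
  (mu X).ev_pr _ (hx_in hj)

theorem ee_E1 {k j : ℕ} (hk : k < 128) (hj : j < 64) : (mu X).ev (ee k j) ∈ E1 X := by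
  rw [ev_ee X hj, hx_eq j hj]
  refine mul_mem ?_ (kc_evalW hs_in (fun c => hs_E1 X) _)
  rw [E1, mem_conjg_inv, kc_cj X ww_in (Wm_spec k hk).1, (Wm_spec k hk).2]
  exact X.ev_EE hk

theorem E1_par {e : G} (h : e ∈ E1 X) : ∃ k < 128, ∃ j < 64, e = (mu X).ev (ee k j) := by
  let F : Fin 128 × Fin 64 → E1 X := fun p => ⟨_, ee_E1 X p.1.2 p.2.2⟩
  have i : Function.Injective F := fun p q e => by
    have := ev_inj X (ok_ee p.1.2 p.2.2) (ok_ee q.1.2 q.2.2) (congrArg Subtype.val e)
    have a := congrArg fs this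
    have b := congrArg sn this
    rw [ee, ee, fs_pr _ (InH.lt (hx_in p.2.2)), fs_pr _ (InH.lt (hx_in q.2.2))] at a
    rw [ee, ee, sn_pr _ (InH.lt (hx_in p.2.2)), sn_pr _ (InH.lt (hx_in q.2.2))] at b
    exact Prod.ext (Fin.ext (by rw [← (Wm_spec _ p.1.2).2, a, (Wm_spec _ q.1.2).2])) (Fin.ext (hx_inj _ p.2.2 _ q.2.2 b))
  obtain ⟨p, hp⟩ := (i.bijective_of_nat_card_le (by rw [E1, card_conjg, X.card_EE]; simp)).2 ⟨e, h⟩
  exact ⟨_, p.1.2, _, p.2.2, (congrArg Subtype.val hp).symm⟩

theorem z_eq : kc (mu X).κ ww * X.ev 980 * (kc (mu X).κ ww)⁻¹ = X.z := by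
  rw [kc_cj X ww_in (by norm_num), ← X.ev_64, show act ww 980 = 64 by decide +kernel]

variable {X}

theorem z_cj {u : G} (h : Commute (X.ev 980) u) : Commute X.z (kc (mu X).κ ww * u * (kc (mu X).κ ww)⁻¹) :=
  z_eq X ▸ h.conj _

theorem E1_cj {u e : G} (h : Commute (X.ev 980) u) (he : e ∈ E1 X) : u * e * u⁻¹ ∈ E1 X := by
  have := X.conj_EE (z_cj h) (mem_conjg_inv.1 he)
  rw [E1, mem_conjg_inv]
  convert this using 1
  group

theorem E1_cen {u : G} (h : ∀ i < 7, Commute u (X.ev (col Wm i))) (h' : ∀ c ∈ hs, Commute u (kc (mu X).κ c)) :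
    u = 1 ∨ u = X.ev 980 := by
  have z : Commute (X.ev 980) u := (h 6 (by norm_num)).symm
  have a : ∀ k < 2 ^ 7, Commute u (X.ev (ap Wm k)) := xor_induction _ (by rw [ap_zero, X.ev_zero]; exact .one_right _)
    (fun a b _ _ e f => by rw [ap_xor, X.ev_xor]; exact e.mul_right f) fun i hi => ap_two_pow Wm (i := i) (by omega) ▸ h i hi
  refine (X.cent_EE (z_cj z) fun e he => ?_).imp conj_eq_one_iff.1 fun e => ?_
  · obtain ⟨k, hk, j, hj, f⟩ := E1_par X (conj_mem_conjg _ he)
    have := ((a k hk).mul_right (mem_cent_iff.1 (kc_evalW hs_in (A := 𝒞[u]) (fun c hc => mem_cent_iff.2 (h' c hc).symm)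
      ((List.range 6).map fun i => bif' (tb j i) i 6))).symm).conj (kc (mu X).κ ww)
    rw [← hx_eq j hj, ← ev_ee X hj, ← f] at this
    convert this using 1
    group
  · rw [← z_eq X] at e
    exact mul_left_cancel (mul_right_cancel e)

variable (X) in
theorem amb : Amb (mu X) := by
  refine ⟨fun _ _ => ev_inj X, fun g h => ?_⟩
  rw [MH.ev_one, z1, MH.ev_pr _ _ (InH.one _), kc_one, mul_one]
  refine E1_cen (fun i hi => ?_) fun c hc => ?_
  · have := h _ (List.mem_append_left _ (List.mem_map_of_mem (List.mem_range.2 hi)))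
    rwa [MH.ev_pr _ _ (InH.one _), kc_one, mul_one] at this
  · have := h _ (List.mem_append_right _ hc)
    rwa [MH.ev_perm _ (hs_in c hc)] at this

end

end CA.J4q

theorem CA.J4q.realizeEqnsMod : True := by
  have := @CA.J4q.hx.eq_1
  have := @CA.J4q.hx.eq_def
  have := @CA.J4q.hx.congr_simp
  have := @CA.J4q.E1.eq_1.{0}
  have := @CA.J4q.E1.eq_def.{0}
  have := @CA.J4q.E1.congr_simp.{0}
  have := @CA.J4q.Kc.eq_1.{0}
  have := @CA.J4q.Kc.eq_def.{0}
  have := @CA.J4q.Kc.congr_simp.{0}
  have := @CA.J4q.mu.eq_1.{0}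
  have := @CA.J4q.mu.eq_def.{0}
  have := @CA.J4q.mu.congr_simp.{0}
  have := @CA.J4q.HL.eq_1
  have := @CA.J4q.HL.eq_def
  have := @CA.J4q.HL.congr_simp
  have := @CA.J4q.ee.eq_1
  have := @CA.J4q.ee.eq_def
  have := @CA.J4q.ee.congr_simp
  have := @CA.J4q.ww.eq_1
  have := @CA.J4q.ww.eq_def
  have := @CA.J4q.ww.congr_simp
  trivial
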