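/-
The extra involution and the homomorphism from the presented group.
-/
import Cfsg.Agent.J4q.Mod

set_option autoImplicit false
set_option maxRecDepth 100000
set_option linter.unusedSectionVars false

namespace CA.J4q

open CA.M24 CA.Fi CA.FG CA.J4 CA.J4.HM CA.J4u Cfsg Subgroup Equiv

noncomputable section

/-- an element of order three permuting the octads of the trio, its square, and members of its normaliser -/
def r1 : ℕ := nat_lit 777918141900370824360984824504760559
def r2 : ℕ := nat_lit 937636928730944777518153830304526696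
def a1 : ℕ := nat_lit 305987326033839547887616656412125200
def a2 : ℕ := nat_lit 682075929814514708880713307413259877
def s1 : ℕ := nat_lit 884329154494906740882720724155613734
def s2 : ℕ := nat_lit 937466469494073261870855364575535499
def mv : ℕ := nat_lit 99598058177242711429506836095831277
/-- members of the stabiliser of the trio -/
def q0 : ℕ := nat_lit 341531853541045281165087712818677761
def k0 : ℕ := nat_lit 517164904056327656058677688041867296
def u1 : ℕ := nat_lit 554789447021419811697830183995345105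
def u2 : ℕ := nat_lit 515485207300062184052148248775182545
def n20 : ℕ := nat_lit 100092690649710982143877523370651940
def ns : List ℕ := [nat_lit 984818244535754528103549039458486304, nat_lit 944161497745679255333934380313324082, nat_lit 442247252235929646158272387322727716, nat_lit 844458723369087435384163762755427685, nat_lit 99598058177242711429506836095831277, nat_lit 501105150866840284749678725286615726, nat_lit 321086272061583638175239311079942690, nat_lit 810404121153256660528404815808773806, nat_lit 689652888392409109810401516307239619]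
def nrC (m : ℕ) : ℕ := force (ecj r1 m) fun a => force (ecj r2 m) fun b => force (emul a b) (emul m)
def enumE (a b : ℕ) (q : ℕ → Bool) : Bool := allR (fun j => force (hx j) fun h =>
  bimp (band (Nat.beq (pmul a h) (pmul h a)) (Nat.beq (pmul b h) (pmul h b))) (allR (fun k => force (ap Wm k) fun v =>
    bimp (band (Nat.beq (actF a v) v) (Nat.beq (actF b v) v)) (force (pr v h) q)) 128)) 64

theorem r1_in : InH M24 r1 := inM_of_chk (by decide +kernel)
theorem r2_in : InH M24 r2 := inM_of_chk (by decide +kernel)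
theorem q0_in : InH M24 q0 := inM_of_chk (by decide +kernel)
theorem k0_in : InH M24 k0 := inM_of_chk (by decide +kernel)

variable {G : Type*} [Group G] [Finite G] {X : HM G} [hF : Fact X.Fu]

theorem kc_comm {κ : M24 →* G} {a b : ℕ} (ha : InH M24 a) (hb : InH M24 b) (e : pmul a b = pmul b a) :
    Commute (kc κ a) (kc κ b) := by rw [commute_iff_eq, ← kc_mul _ ha hb, e, kc_mul _ hb ha]

theorem K_z' {c : ℕ} (hc : InH M24 c) (e : pmul c c = pone) (n : c ≠ pone) :
    perm c ≠ 1 ∧ IsConj X.z (X.K ⟨_, hc.perm_mem⟩) :=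
  ⟨ne_one_of_code hc.code_perm n, K_z _ (Subtype.ext (code_inj (by
    rw [coe_mul, ← pmul_code, hc.code_perm, e, coe_one, code_one])))
    fun h => ne_one_of_code hc.code_perm n (congrArg Subtype.val h)⟩

theorem clsA {k c x : ℕ} (hc : InH M24 c) (h : k < 2048 ∧ x < 2048 ∧ du 23 (dig c 23) < 2048 ∧ pmul c c = pone ∧
    c ≠ pone ∧ k ^^^ du 23 (dig c 23) = x ^^^ act c x) : IsConj X.z ((mu X).ev (pr k c)) := by
  rw [MH.ev_pr _ _ hc, kc_eq X hc, mu_ν, ← mul_assoc, ← X.ev_xor]
  exact (K_z' hc h.2.2.2.1 h.2.2.2.2.1).2.trans (Im.conj (((th_K _).im (xor_lt11 h.1 h.2.2.1)).2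
    ⟨x, h.2.1, by rw [hc.code_perm]; exact h.2.2.2.2.2⟩))

theorem cls_q0 : IsConj X.t (kc (mu X).κ q0) := by
  have e : kc (mu X).κ q0 * kc (mu X).κ q0 = 1 := by
    rw [← kc_mul _ q0_in q0_in, show pmul q0 q0 = pone by decide +kernel, kc_one]
  have a := K_z' (X := X) q0_in (by decide +kernel) (by decide +kernel)
  rw [kc_eq X q0_in] at e ⊢
  exact (th_K _).t_of a.1 a.2 (by decide +kernel) e (by rw [q0_in.code_perm]; decide +kernel)

theorem fixE {s v h : ℕ} (hs : InH M24 s) (hv : v < 2048) (hh : InH M24 h)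
    (e : Commute (kc (mu X).κ s) ((mu X).ev (pr v h))) : pmul s h = pmul h s ∧ actF s v = v := by
  have := ev_inj X (ok_pr (actF_lt hs hv) (hs.mul hh)) (ok_pr hv (hh.mul hs)) (by
    rw [MH.ev_pr _ _ (hs.mul hh), MH.ev_pr _ _ (hh.mul hs), kc_mul _ hs hh, kc_mul _ hh hs, ← mul_assoc,
      ← MH.kc_ν _ hs hv, mul_assoc, ← MH.ev_pr _ _ hh, e.eq, MH.ev_pr _ _ hh, mul_assoc])
  have a := congrArg fs this
  have b := congrArg sn this
  rw [fs_pr _ (InH.lt (hs.mul hh)), fs_pr _ (InH.lt (hh.mul hs))] at a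
  rw [sn_pr _ (InH.lt (hs.mul hh)), sn_pr _ (InH.lt (hh.mul hs))] at b
  exact ⟨b, a⟩

theorem enum_spec {a b : ℕ} {q : ℕ → Bool} (H : enumE a b q = true) (ha : InH M24 a) (hb : InH M24 b) {e : G}
    (he : e ∈ E1 X) (c : Commute (kc (mu X).κ a) e) (d : Commute (kc (mu X).κ b) e) :
    ∃ m, Ok m ∧ e = (mu X).ev m ∧ q m = true := by
  obtain ⟨k, hk, j, hj, rfl⟩ := E1_par X he
  simp only [enumE, allR_eq_true, force_eq, bimp_eq_true, band_eq_true, beq_iff] at H
  have c := fixE ha (Wm_spec k hk).1 (hx_in hj) c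
  have d := fixE hb (Wm_spec k hk).1 (hx_in hj) d
  exact ⟨_, ok_ee hk hj, rfl, H j hj ⟨c.1, d.1⟩ k hk ⟨c.2, d.2⟩⟩

theorem ev_nrC {m : ℕ} (h : Ok m) : Ok (nrC m) ∧ (mu X).ev (nrC m) = (mu X).ev m *
    (kc (mu X).κ r1 * (mu X).ev m * (kc (mu X).κ r1)⁻¹ * (kc (mu X).κ r2 * (mu X).ev m * (kc (mu X).κ r2)⁻¹)) := by
  have a := ok_ecj (ok_perm r1_in) h
  have b := ok_ecj (ok_perm r2_in) h
  simp only [nrC, force_eq]
  rw [MH.ev_mul _ h (a.mul b), MH.ev_mul _ a b, ev_ecj (ok_perm r1_in) h, ev_ecj (ok_perm r2_in) h,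
    MH.ev_perm _ r1_in, MH.ev_perm _ r2_in]
  exact ⟨h.mul (a.mul b), rfl⟩

theorem ev_v (v : ℕ) : (mu X).ev (pr v pone) = X.ev v := by rw [MH.ev_pr _ _ (InH.one _), kc_one, mul_one, mu_ν]

theorem not_t_one (h : IsConj X.t (1 : G)) : False := X.t_ne (isConj_one_left.1 h)

variable (X) in
/-- the central involution of the centraliser of the element of order three -/
structure T3 (t : G) : Prop where
  cls : IsConj X.z t
  le : 𝒩(zpowers (kc (mu X).κ r1)) ≤ 𝒞[t]

variable (X) in
theorem exists_T3 : ∃ t, T3 X t := by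
  have o : orderOf (kc (mu X).κ r1) = 3 := by
    refine orderOf_eq_prime (((RC.mk r1_in rfl).pow 3).eq_one (by decide +kernel)) fun h => ?_
    exact ne_one_of_code r1_in.code_perm (by decide +kernel) ((th_kc X r1_in).eq_one (h ▸ one_mem _))
  obtain ⟨g, e⟩ := isConj_iff.1 (X.conj_ρ o)
  exact ⟨_, isConj_iff.2 ⟨g, rfl⟩, by
    rw [← e, ← conjg_zpowers, ← conjg_norm, ← conjg_cent1]; exact conjg_mono g X.norm_ρ⟩

namespace T3

variable {t : G} (h : T3 X t)
include h

theorem sq : t * t = 1 := J4o.sq_of_conj X.z_sq h.cls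
theorem inv : t⁻¹ = t := inv_eq_of_mul_eq_one_right h.sq

theorem nrm {c : ℕ} (e : band (chk c) (bor (Nat.beq (pmul c r1) (pmul r1 c))
    (Nat.beq (pmul c r1) (pmul (pmul r1 r1) c))) = true) : Commute t (kc (mu X).κ c) := by
  simp only [band_eq_true, bor_eq_true, beq_iff] at e
  have hc := inM_of_chk e.1
  refine (mem_cent_iff.1 (h.le (mem_norm_of_conjg_le ?_))).symm
  rw [conjg_zpowers, zpowers_le, ← kc_mul _ hc r1_in]
  rcases e.2 with e | e
  · rw [e, kc_mul _ r1_in hc, mul_inv_cancel_right]; exact mem_zpowers _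
  · rw [e, kc_mul _ (r1_in.mul r1_in) hc, mul_inv_cancel_right, kc_mul _ r1_in r1_in]
    exact mul_mem (mem_zpowers _) (mem_zpowers _)

theorem zc : Commute (X.ev 980) t := by
  refine mem_cent_iff.1 (h.le (mem_norm_of_conjg_le ?_))
  rw [conjg_zpowers, conj_eq_iff_commute.2 (conj_eq_iff_commute.1 (by
    rw [kc_cj X r1_in (by norm_num), show act r1 980 = 980 by decide +kernel])).symm]

theorem cj {a b : G} (c : Commute t a) (d : Commute a b) : Commute a (t * b * t⁻¹) :=
  (c.symm.mul_right d).mul_right c.symm.inv_right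

theorem tq : Commute t (kc (mu X).κ q0) := by
  have m : kc (mu X).κ q0 ∈ E1 X := by
    have := ee_E1 X (k := 0) (j := 5) (by norm_num) (by norm_num)
    rwa [show ee 0 5 = q0 by decide +kernel, MH.ev_perm _ q0_in] at this
  have i1 : InH M24 s1 := inM_of_chk (by decide +kernel)
  have i2 : InH M24 s2 := inM_of_chk (by decide +kernel)
  obtain ⟨m, o, e, c⟩ := enum_spec (q := fun m => bimp (Nat.beq (nrC m) pone) (memL m [pone, pr 411 pone, pr 591 q0, q0]))
    (by decide +kernel) i1 i2 (E1_cj h.zc m)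
    (h.cj (h.nrm (by decide +kernel)) (kc_comm i1 q0_in (by decide +kernel)))
    (h.cj (h.nrm (by decide +kernel)) (kc_comm i2 q0_in (by decide +kernel)))
  have k : IsConj X.t ((mu X).ev m) := e ▸ cls_q0.trans (isConj_iff.2 ⟨t, rfl⟩)
  have n : nrC m = pone := ev_inj X (ev_nrC (X := X) o).1 ok_one (by
    have a := (ev_nrC (X := X) (ok_perm q0_in)).2
    have b1 := conj_eq_iff_commute.2 (h.nrm (c := r1) (by decide +kernel))
    have b2 := conj_eq_iff_commute.2 (h.nrm (c := r2) (by decide +kernel))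
    rw [show nrC q0 = pone by decide +kernel, MH.ev_perm _ q0_in] at a
    rw [(ev_nrC o).2, ← e, ← b1, ← b2, MH.ev_one, ← conj_eq_one_iff (a := t⁻¹), ← (mu X).ev_one, a]
    group)
  simp only [bimp_eq_true, beq_iff, memL_eq_true, List.mem_cons, List.not_mem_nil, or_false] at c
  rcases c n with rfl | rfl | rfl | rfl
  · exact (not_t_one (by rwa [MH.ev_one] at k)).elim
  · exact (not_both ((X.zc_iff (x := 411) (by norm_num)).2 (by decide +kernel)) (by rwa [ev_v] at k)).elim
  · exact (not_both (clsA (x := 1044) q0_in (by decide +kernel)) k).elim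
  · exact conj_eq_iff_commute.1 (e.trans ((mu X).ev_perm q0_in))

theorem k0' : K0 (mu X).κ t := by
  have k : ∀ w, Commute t (kc (mu X).κ (evalW [a1, a2, q0] w)) := fun w =>
    (mem_cent_iff.1 (kc_evalW (A := 𝒞[t]) (inM_of_allL (by decide +kernel)) (by
      simp only [List.mem_cons, List.not_mem_nil, or_false, forall_eq_or_imp, forall_eq, mem_cent_iff]
      exact ⟨(h.nrm (by decide +kernel)).symm, (h.nrm (by decide +kernel)).symm, h.tq.symm⟩) w)).symm
  exact ⟨h.sq, (by decide +kernel : evalW [a1, a2, q0] [0, 0, 0, 0, 0, 0, 2, 0, 1, 0, 0, 1, 2, 0, 0] = x0) ▸ k _,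
    (by decide +kernel : evalW [a1, a2, q0] [2, 1, 0, 0, 2, 1, 0, 2, 1, 0, 1, 0] = w0) ▸ k _⟩

theorem not_comm (e : Commute t (X.ev 984)) : False := by
  have a : ∀ v ∈ ns.map fun n => act n 984, v < 2048 ∧ Commute t (X.ev v) := fun v hv => by
    obtain ⟨n, hn, rfl⟩ := List.mem_map.1 hv
    have := band_eq_true.1 (allL_eq_true.1 (by decide +kernel : allL (fun c => band (chk c) (fixT c)) ns = true) n hn)
    have c := h.k0'.comm (inM_of_chk this.1) this.2
    exact ⟨act_lt _ _, kc_cj X (inM_of_chk this.1) (k := 984) (by norm_num) ▸ (c.mul_right e).mul_right c.inv_right⟩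
  have b := fun k => xorSel_ind (fun v => v < 2048 ∧ Commute t (X.ev v))
    ⟨by norm_num, by rw [X.ev_zero]; exact .one_right _⟩
    (fun a b c d => ⟨xor_lt11 c.1 d.1, by rw [X.ev_xor]; exact c.2.mul_right d.2⟩) _ a k 0
  rcases E1_cen (X := X) (u := t) (fun i hi => (by decide +kernel : ∀ i < 7, xorSel (ns.map fun n => act n 984)
      (getL [489, 376, 1, 476, 358, 288, 67] 0 i) 0 = col Wm i) i hi ▸ (b _).2)
    (fun c hc => h.k0'.comm (hs_in c hc) (allL_eq_true.1 (by decide +kernel : allL fixT hs = true) c hc)) with e | e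
  · exact J4o.ne_of_conj X.z_ne h.cls e
  · have := conj_eq_iff_commute.2 (e ▸ h.nrm (c := mv) (by decide +kernel)).symm
    rw [kc_cj X (inM_of_chk (by decide +kernel)) (by norm_num)] at this
    exact absurd (X.ev_inj (act_lt _ _) (by norm_num) this) (by decide +kernel)

theorem tv0 : t * X.ev 984 * t⁻¹ = (mu X).ev (pr 984 k0) := by
  have m : X.ev 984 ∈ E1 X := by
    have := ee_E1 X (k := 4) (j := 0) (by norm_num) (by norm_num)
    rwa [show ee 4 0 = pr 984 pone by decide +kernel, ev_v] at this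
  have i1 : InH M24 u1 := inM_of_chk (by decide +kernel)
  have i2 : InH M24 u2 := inM_of_chk (by decide +kernel)
  obtain ⟨m, o, e, c⟩ := enum_spec (q := fun m => memL m [pone, pr 984 pone, pr 0 k0, pr 984 k0])
    (by decide +kernel) i1 i2 (E1_cj h.zc m)
    (h.cj (h.k0'.comm i1 (by decide +kernel)) (conj_eq_iff_commute.1 (by
      rw [kc_cj X i1 (by norm_num), show act u1 984 = 984 by decide +kernel])))
    (h.cj (h.k0'.comm i2 (by decide +kernel)) (conj_eq_iff_commute.1 (by
      rw [kc_cj X i2 (by norm_num), show act u2 984 = 984 by decide +kernel])))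
  have k : IsConj X.t ((mu X).ev m) :=
    e ▸ (conj_t_of (x := 984) (by norm_num) (by decide +kernel)).trans (isConj_iff.2 ⟨t, rfl⟩)
  simp only [memL_eq_true, List.mem_cons, List.not_mem_nil, or_false] at c
  rcases c with rfl | rfl | rfl | rfl
  · exact (not_t_one (by rwa [MH.ev_one] at k)).elim
  · exact (h.not_comm (conj_eq_iff_commute.1 (e.trans (ev_v _)))).elim
  · exact (not_both (clsA (x := 4) k0_in (by decide +kernel)) k).elim
  · exact e

theorem s0 : S0 (mu X) t := by
  refine ⟨h.k0', ?_⟩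
  have i : InH M24 n20 := inM_of_chk (by decide +kernel)
  have o : Ok (pr 984 k0) := ok_pr (by norm_num) k0_in
  have c := conj_eq_iff_commute.2 (h.k0'.comm i (by decide +kernel))
  rw [← MH.ev_pr _ _ k20_in, show pr 20 k20 = emul (pr 984 k0) (ecj n20 (pr 984 k0)) by decide +kernel,
    MH.ev_mul _ o (ok_ecj (ok_perm i) o), ev_ecj (ok_perm i) o, ← h.tv0, MH.ev_perm _ i, mu_ν,
    show 20 = 984 ^^^ act n20 984 by decide +kernel, X.ev_xor, ← kc_cj X i (by norm_num)]
  conv_rhs => rw [← c]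
  simp only [mul_inv_rev, h.inv, mul_assoc, ← mul_assoc t t, h.sq, one_mul]

end T3

variable (X) in
theorem exists_phi : ∃ φ : Spor.J4 →* G, φ jx = kc (mu X).κ x0 ∧ φ jy = kc (mu X).κ y0 ∧ T3 X (φ jt) ∧ φ jx ≠ 1 := by
  obtain ⟨t, h⟩ := exists_T3 X
  obtain ⟨φ, a, b, c⟩ := h.s0.phi (amb X)
  exact ⟨φ, a, b, c ▸ h, fun e => ne_one_of_code x0_in.code_perm (by decide +kernel)
    ((th_kc X x0_in).eq_one (a ▸ e ▸ one_mem _))⟩

end

end CA.J4q

theorem CA.J4q.realizeEqnsEx : True := by
  have := @CA.J4q.r2.eq_1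
  have := @CA.J4q.r2.eq_def
  have := @CA.J4q.r2.congr_simp
  have := @CA.J4q.a1.eq_1
  have := @CA.J4q.a1.eq_def
  have := @CA.J4q.a1.congr_simp
  have := @CA.J4q.s2.eq_1
  have := @CA.J4q.s2.eq_def
  have := @CA.J4q.s2.congr_simp
  have := @CA.J4q.u1.eq_1
  have := @CA.J4q.u1.eq_def
  have := @CA.J4q.u1.congr_simp
  have := @CA.J4q.s1.eq_1
  have := @CA.J4q.s1.eq_def
  have := @CA.J4q.s1.congr_simp
  have := @CA.J4q.u2.eq_1
  have := @CA.J4q.u2.eq_def
  have := @CA.J4q.u2.congr_simp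
  have := @CA.J4q.r1.eq_1
  have := @CA.J4q.r1.eq_def
  have := @CA.J4q.r1.congr_simp
  have := @CA.J4q.mv.eq_1
  have := @CA.J4q.mv.eq_def
  have := @CA.J4q.mv.congr_simp
  have := @CA.J4q.enumE.eq_1
  have := @CA.J4q.enumE.eq_def
  have := @CA.J4q.enumE.congr_simp
  have := @CA.J4q.k0.eq_1
  have := @CA.J4q.k0.eq_def
  have := @CA.J4q.k0.congr_simp
  have := @CA.J4q.nrC.eq_1
  have := @CA.J4q.nrC.eq_def
  have := @CA.J4q.nrC.congr_simp
  have := @CA.J4q.n20.eq_1
  have := @CA.J4q.n20.eq_def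
  have := @CA.J4q.n20.congr_simp
  have := @CA.J4q.a2.eq_1
  have := @CA.J4q.a2.eq_def
  have := @CA.J4q.a2.congr_simp
  have := @CA.J4q.q0.eq_1
  have := @CA.J4q.q0.eq_def
  have := @CA.J4q.q0.congr_simp
  have := @CA.J4q.ns.eq_1
  have := @CA.J4q.ns.eq_def
  have := @CA.J4q.ns.congr_simp
  trivial
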